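import Cfsg.Agent.Lib.Helper55.FF10
import Cfsg.Agent.Lib.Helper53.Basic
import Cfsg.Agent.Lib.Helper12.Card

/-! ODD0, internal part: offenders acting on a `p'`-group. -/

set_option autoImplicit false

namespace Cfsg.Agent.Lib.Helper12.PGV

open Cfsg Subgroup Cfsg.Agent.Lib.Helper55
open scoped commutatorElement
open Cfsg.Agent.Lib.Helper14 (IsElementaryAbelian.comm IsElementaryAbelian.isPGroup
  IsElementaryAbelian.mono isElementaryAbelian_iff)

variable {X : Type*} [Group X] [Finite X] {p : ℕ} [hp : Fact p.Prime]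

/-- complements in elementary abelian groups -/
theorem odd0_compl {A C : Subgroup X} (hA : IsElementaryAbelian p A) (hC : C ≤ A) :
    ∃ A₁ : Subgroup X, A₁ ≤ A ∧ A₁ ⊓ C = ⊥ ∧ C ⊔ A₁ = A := by
  let S : Set (Subgroup X) := {B | B ≤ A ∧ B ⊓ C = ⊥}
  have hS : S.Nonempty := ⟨⊥, bot_le, bot_inf_eq _⟩
  obtain ⟨A₁, ⟨hA₁, hA₁C⟩, hmax⟩ := WellFounded.has_min
    (wellFounded_gt : WellFounded ((· > ·) : Subgroup X → Subgroup X → Prop)) S hS
  refine ⟨A₁, hA₁, hA₁C, ?_⟩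
  by_contra hne
  have hle : C ⊔ A₁ ≤ A := sup_le hC hA₁
  obtain ⟨a, haA, ha⟩ := SetLike.exists_of_lt (lt_of_le_of_ne hle hne)
  have ha1 : a ≠ 1 := by
    rintro rfl
    exact ha (one_mem _)
  have hord : orderOf a = p := orderOf_eq_prime (hA.2 a haA) ha1
  have hcard : Nat.card ↥(zpowers a) = p := by rw [Nat.card_zpowers, hord]
  have hD : zpowers a ⊓ (C ⊔ A₁) = ⊥ := by
    rcases eq_bot_or_eq_of_le_of_card_prime hcard
      (inf_le_left : zpowers a ⊓ (C ⊔ A₁) ≤ zpowers a) with h | h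
    · exact h
    · exfalso
      apply ha
      have : a ∈ zpowers a ⊓ (C ⊔ A₁) := by rw [h]; exact mem_zpowers a
      exact this.2
  have hzA : zpowers a ≤ A := by rwa [zpowers_le]
  have hnorm : zpowers a ≤ normalizer (A₁ : Set X) :=
    (hzA.trans (le_centralizer_of_elemAb hA hA₁)).trans (centralizer_le_normalizer _)
  apply hmax (zpowers a ⊔ A₁) ⟨sup_le hzA hA₁, ?_⟩
  · refine lt_of_le_of_ne le_sup_right ?_
    intro heq
    apply ha
    have : a ∈ A₁ := by rw [heq]; exact le_sup_left (a := zpowers a) (mem_zpowers a)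
    exact le_sup_right (a := C) this
  · rw [eq_bot_iff]
    rintro x ⟨hx1, hx2⟩
    obtain ⟨z, hz, a₁, ha₁, rfl⟩ := (Cfsg.Agent.Lib.Helper53.mem_sup_of_le_normalizer hnorm).mp hx1
    have hz' : z ∈ zpowers a ⊓ (C ⊔ A₁) := by
      refine mem_inf.mpr ⟨hz, ?_⟩
      have : z = (z * a₁) * a₁⁻¹ := by group
      rw [this]
      exact mul_mem (le_sup_left (a := C) hx2) (inv_mem (le_sup_right (a := C) ha₁))
    rw [hD, mem_bot] at hz'
    subst hz'
    rw [one_mul] at hx2 ⊢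
    have : a₁ ∈ A₁ ⊓ C := ⟨ha₁, hx2⟩
    rwa [hA₁C] at this

omit [Finite X] hp in
/-- `C_H(L) ≤ L` for `H = L A₁`, `C_{A₁}(L) = 1` -/
theorem odd0_hCK {L A₁ : Subgroup X} (hA₁ : IsElementaryAbelian p A₁)
    (hAL : A₁ ≤ normalizer (L : Set X)) (hLp : (Nat.card ↥L).Coprime p)
    (hC : A₁ ⊓ centralizer (L : Set X) = ⊥) :
    (L ⊔ A₁) ⊓ centralizer (L : Set X) ≤ L := by
  rintro x ⟨hx1, hx2⟩
  obtain ⟨l, hl, a, ha, rfl⟩ := (Cfsg.Agent.Lib.Helper53.mem_sup_of_le_normalizer' hAL).mp hx1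
  have hcomm : Commute l⁻¹ (l * a) := by
    have := (mem_centralizer_iff.mp hx2 l⁻¹ (L.inv_mem hl))
    exact this
  have hpow : a ^ Nat.card ↥L = (l * a) ^ Nat.card ↥L := by
    have h1 : a = l⁻¹ * (l * a) := by group
    have h2 : l⁻¹ ^ Nat.card ↥L = 1 := by
      have := pow_card_eq_one' (x := (⟨l⁻¹, L.inv_mem hl⟩ : ↥L))
      exact congrArg Subtype.val this
    conv_lhs => rw [h1]
    rw [hcomm.mul_pow, h2, one_mul]
  have haC : a ^ Nat.card ↥L ∈ centralizer (L : Set X) := by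
    rw [hpow]; exact pow_mem hx2 _
  have hcop : (Nat.card ↥L).Coprime (orderOf a) :=
    Nat.Coprime.coprime_dvd_right (orderOf_dvd_of_pow_eq_one (hA₁.2 a ha)) hLp
  obtain ⟨m, hm⟩ := exists_pow_eq_self_of_coprime hcop
  have haC' : a ∈ centralizer (L : Set X) := by
    rw [← hm]; exact pow_mem haC _
  have : a ∈ A₁ ⊓ centralizer (L : Set X) := mem_inf.mpr ⟨ha, haC'⟩
  rw [hC, mem_bot] at this
  rw [this, mul_one]
  exact hl

/-- the FFS structure on `W = C_V(C)` -/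
theorem odd0_ffs {V L A A₁ : Subgroup X} (hV : IsElementaryAbelian p V)
    (hLV : L ≤ normalizer (V : Set X)) (hAV : A ≤ normalizer (V : Set X))
    (hAL : A ≤ normalizer (L : Set X)) (hLp : (Nat.card ↥L).Coprime p)
    (hA : IsElementaryAbelian p A) (hf : (L ⊔ A) ⊓ centralizer (V : Set X) = ⊥)
    (hA₁ : A₁ ≤ A) (hA₁C : A₁ ⊓ (A ⊓ centralizer (L : Set X)) = ⊥) :
    FFS p (V ⊓ centralizer ((A ⊓ centralizer (L : Set X) : Subgroup X) : Set X)) (L ⊔ A₁) L := by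
  set C := A ⊓ centralizer (L : Set X) with hCdef
  have hCA : C ≤ A := inf_le_left
  have hLC : L ≤ centralizer (C : Set X) := by
    rw [le_centralizer_iff]; exact inf_le_right
  have hA₁C' : A₁ ≤ centralizer (C : Set X) := hA₁.trans (le_centralizer_of_elemAb hA hCA)
  have hHW : L ⊔ A₁ ≤ normalizer ((V ⊓ centralizer (C : Set X) : Subgroup X) : Set X) := by
    apply Cfsg.Agent.Lib.Helper53.le_normalizer_inf
    · exact sup_le hLV (hA₁.trans hAV)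
    · exact (sup_le hLC hA₁C').trans le_normalizer
  have hA₁L : A₁ ⊓ centralizer (L : Set X) = ⊥ := by
    rw [eq_bot_iff, ← hA₁C]
    intro x hx
    exact mem_inf.mpr ⟨hx.1, mem_inf.mpr ⟨hA₁ hx.1, hx.2⟩⟩
  have hCK := odd0_hCK (IsElementaryAbelian.mono hA hA₁) (hA₁.trans hAL) hLp hA₁L
  have hLW : L ⊓ centralizer ((V ⊓ centralizer (C : Set X) : Subgroup X) : Set X) = ⊥ := by
    rw [eq_bot_iff]
    rintro x ⟨hxL, hxW⟩
    have hxo : (orderOf x).Coprime p :=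
      Nat.Coprime.coprime_dvd_left (orderOf_dvd_natCard (⟨x, hxL⟩ : ↥L) |> fun h => by
        rwa [Subgroup.orderOf_mk] at h) hLp
    have hxV := Cfsg.Agent.Lib.Helper14.thompson_AxB C x
      ((IsElementaryAbelian.isPGroup hA).to_le hCA) hxo (hLC hxL) V
      (IsElementaryAbelian.isPGroup hV) (hLV hxL) (hCA.trans hAV) hxW
    have : x ∈ (L ⊔ A) ⊓ centralizer (V : Set X) := mem_inf.mpr ⟨le_sup_left (a := L) hxL, hxV⟩
    rwa [hf] at this
  refine ⟨IsElementaryAbelian.mono hV inf_le_left, hHW, ?_, le_sup_left,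
    sup_le le_normalizer (hA₁.trans hAL), hLp, hCK⟩
  rw [eq_bot_iff]
  rintro n ⟨hnH, hnW⟩
  have hnL : n ∈ normalizer (L : Set X) := (sup_le le_normalizer (hA₁.trans hAL)) hnH
  have hnC : n ∈ centralizer (L : Set X) := by
    rw [mem_centralizer_iff]
    intro l hl
    have h1 : n * l * n⁻¹ * l⁻¹ ∈ L :=
      L.mul_mem ((mem_normalizer_iff.mp hnL l).mp hl) (L.inv_mem hl)
    have hlN : l ∈ normalizer
        ((centralizer ((V ⊓ centralizer (C : Set X) : Subgroup X) : Set X) : Subgroup X) : Set X) :=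
      normalizer_le_normalizer_centralizer' _ (hHW (le_sup_left (a := L) hl))
    have h2 : n * l * n⁻¹ * l⁻¹ ∈
        centralizer ((V ⊓ centralizer (C : Set X) : Subgroup X) : Set X) := by
      have h3 := (mem_normalizer_iff.mp hlN n⁻¹).mp (inv_mem hnW)
      have h4 : n * l * n⁻¹ * l⁻¹ = n * (l * n⁻¹ * l⁻¹) := by group
      rw [h4]
      exact mul_mem hnW h3
    have h5 : n * l * n⁻¹ * l⁻¹ ∈
        L ⊓ centralizer ((V ⊓ centralizer (C : Set X) : Subgroup X) : Set X) := mem_inf.mpr ⟨h1, h2⟩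
    rw [hLW, mem_bot] at h5
    calc l * n = (n * l * n⁻¹ * l⁻¹)⁻¹ * (n * l) := by group
      _ = n * l := by rw [h5]; simp
  have hnL' : n ∈ L := hCK (mem_inf.mpr ⟨hnH, hnC⟩)
  have : n ∈ L ⊓ centralizer ((V ⊓ centralizer (C : Set X) : Subgroup X) : Set X) :=
    mem_inf.mpr ⟨hnL', hnW⟩
  rwa [hLW] at this

omit [Finite X] in
theorem odd0_cent_sup (C B : Subgroup X) :
    centralizer ((C ⊔ B : Subgroup X) : Set X) =
      centralizer (C : Set X) ⊓ centralizer (B : Set X) := by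
  apply le_antisymm
  · exact le_inf (centralizer_le (le_sup_left (a := C) (b := B)))
      (centralizer_le (le_sup_right (a := C) (b := B)))
  · intro x hx
    have h1 : C ≤ centralizer ((zpowers x : Subgroup X) : Set X) := by
      rw [le_centralizer_iff, zpowers_le]; exact hx.1
    have h2 : B ≤ centralizer ((zpowers x : Subgroup X) : Set X) := by
      rw [le_centralizer_iff, zpowers_le]; exact hx.2
    have h3 := sup_le h1 h2
    rw [le_centralizer_iff, zpowers_le] at h3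
    exact h3

omit hp in
theorem odd0_bo {V A A₁ : Subgroup X} (hA : IsElementaryAbelian p A)
    (hP : ∀ B : Subgroup X, B ≤ A →
      Nat.card B * Nat.card ↥(V ⊓ centralizer (B : Set X)) ≤
        Nat.card A * Nat.card ↥(V ⊓ centralizer (A : Set X)))
    (C : Subgroup X) (hCA : C ≤ A) (hA₁ : A₁ ≤ A) (hA₁C : A₁ ⊓ C = ⊥) (hsup : C ⊔ A₁ = A) :
    IsBestOffenderOn p (V ⊓ centralizer (C : Set X)) A₁ := by
  have hcard : ∀ B : Subgroup X, B ≤ A₁ → Nat.card ↥(C ⊔ B) = Nat.card C * Nat.card B := by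
    intro B hB
    have h1 := Cfsg.Agent.Lib.Helper12.card_sup_mul_card_inf' C B
      ((hCA.trans (le_centralizer_of_elemAb hA (hB.trans hA₁))).trans (centralizer_le_normalizer _))
    have h2 : C ⊓ B = ⊥ := by
      rw [eq_bot_iff, ← hA₁C]
      intro x hx
      exact mem_inf.mpr ⟨hB hx.2, hx.1⟩
    rw [h2, card_bot, mul_one] at h1
    exact h1
  have hW : ∀ B : Subgroup X, V ⊓ centralizer (C : Set X) ⊓ centralizer (B : Set X) =
      V ⊓ centralizer ((C ⊔ B : Subgroup X) : Set X) := by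
    intro B
    rw [odd0_cent_sup, inf_assoc]
  refine ⟨?_, ?_, ?_⟩
  · intro B hB
    have h1 := hP (C ⊔ B) (sup_le hCA (hB.trans hA₁))
    rw [hW, hW, hsup]
    rw [hcard B hB] at h1
    have h2 : Nat.card A = Nat.card C * Nat.card A₁ := by rw [← hsup]; exact hcard A₁ le_rfl
    rw [h2, mul_assoc, mul_assoc] at h1
    exact Nat.le_of_mul_le_mul_left h1 Nat.card_pos
  · have : ⁅A₁, A₁⁆ = ⊥ := by
      rw [commutator_eq_bot_iff_le_centralizer]
      exact hA₁.trans (le_centralizer_of_elemAb hA hA₁)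
    rw [this]; exact bot_le
  · intro a ha
    rw [hA.2 a (hA₁ ha)]
    exact one_mem _

theorem odd0_T {W H L T K : Subgroup X} (h : FFS p W H L) (hT : MinOff p W H T) (hKL : K ≤ L)
    (hperf : ⁅K, K⁆ = K)
    (hd : ∀ a ∈ T, (∀ k ∈ K, a * k * a⁻¹ ∈ K) ∨
      (∀ k ∈ K, ∀ k' ∈ K, k * (a * k' * a⁻¹) = (a * k' * a⁻¹) * k)) :
    ∀ a ∈ T, ∀ k ∈ K, a * k * a⁻¹ ∈ K := by
  obtain ⟨r, hr, hR⟩ : ∃ r : ℕ, r.Prime ∧ IsPGroup r ↥⁅L, T⁆ := by
    rcases FFS.MinOff.prime_le_three h hT with rfl | rfl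
    · exact ⟨3, by norm_num, FFS.MinOff.commutator_isPGroup h hT (r := 3) (k := 1) (by norm_num)
        (by norm_num)⟩
    · exact ⟨2, by norm_num, FFS.MinOff.commutator_isPGroup h hT (r := 2) (k := 3) (by norm_num)
        (by norm_num)⟩
  have : Fact r.Prime := ⟨hr⟩
  intro a ha
  rcases hd a ha with h1 | h2
  · exact h1
  have hLN : L ≤ normalizer ((⁅L, T⁆ : Subgroup X) : Set X) := by
    apply le_normalizer_of_conj_mem
    intro l hl y hy
    -- l y l⁻¹ = ⁅l, y⁆ y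
    have hyLT : y ∈ L ⊔ T := (commutator_le.mpr (fun g₁ h₁ g₂ h₂ =>
      mul_mem (mul_mem (mul_mem (le_sup_left (a := L) h₁) (le_sup_right (a := L) h₂))
        (inv_mem (le_sup_left (a := L) h₁))) (inv_mem (le_sup_right (a := L) h₂)))) hy
    revert y
    have key : (⁅L, T⁆).map (MulAut.conj l).toMonoidHom ≤ ⁅L, T⁆ := by
      rw [map_commutator, commutator_le]
      rintro _ ⟨g₁, h₁, rfl⟩ _ ⟨g₂, h₂, rfl⟩
      -- ⁅l g₁ l⁻¹, l g₂ l⁻¹⁆ = l ⁅g₁, g₂⁆ l⁻¹ = ⁅l g₁, g₂⁆ ⁅l, g₂⁆⁻¹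
      have e : ⁅(MulAut.conj l).toMonoidHom g₁, (MulAut.conj l).toMonoidHom g₂⁆ =
          ⁅l * g₁, g₂⁆ * ⁅l, g₂⁆⁻¹ := by
        simp only [MulEquiv.coe_toMonoidHom, MulAut.conj_apply, commutatorElement_def]
        group
      rw [e]
      exact mul_mem (commutator_mem_commutator (L.mul_mem hl h₁) h₂)
        (inv_mem (commutator_mem_commutator hl h₂))
    intro y hy _
    exact key ⟨y, hy, rfl⟩
  have hK : K ≤ ⁅L, T⁆ := by
    conv_lhs => rw [← hperf]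
    rw [commutator_le]
    intro k₁ hk₁ k₂ hk₂
    have hy : ⁅k₁, a⁆ ∈ ⁅L, T⁆ := commutator_mem_commutator (hKL hk₁) ha
    have hy2 : k₂ * ⁅k₁, a⁆⁻¹ * k₂⁻¹ ∈ ⁅L, T⁆ :=
      (mem_normalizer_iff.mp (hLN (hKL hk₂)) _).mp (inv_mem hy)
    have e : ⁅k₁, k₂⁆ = ⁅k₁, a⁆ * (k₂ * ⁅k₁, a⁆⁻¹ * k₂⁻¹) := by
      have c1 := h2 k₂ hk₂ k₁⁻¹ (K.inv_mem hk₁)
      simp only [commutatorElement_def]
      have c2 : k₂ * (a * k₁⁻¹ * a⁻¹)⁻¹ = (a * k₁⁻¹ * a⁻¹)⁻¹ * k₂ := by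
        have : (a * k₁⁻¹ * a⁻¹)⁻¹ * (k₂ * (a * k₁⁻¹ * a⁻¹)) * (a * k₁⁻¹ * a⁻¹)⁻¹ =
            (a * k₁⁻¹ * a⁻¹)⁻¹ * ((a * k₁⁻¹ * a⁻¹) * k₂) * (a * k₁⁻¹ * a⁻¹)⁻¹ := by rw [c1]
        simpa [mul_assoc] using this.symm
      calc k₁ * k₂ * k₁⁻¹ * k₂⁻¹
          = k₁ * (a * k₁⁻¹ * a⁻¹) * ((a * k₁⁻¹ * a⁻¹)⁻¹ * k₂) * k₁⁻¹ * k₂⁻¹ := by group
        _ = k₁ * (a * k₁⁻¹ * a⁻¹) * (k₂ * (a * k₁⁻¹ * a⁻¹)⁻¹) * k₁⁻¹ * k₂⁻¹ := by rw [c2]
        _ = k₁ * a * k₁⁻¹ * a⁻¹ * (k₂ * (k₁ * a * k₁⁻¹ * a⁻¹)⁻¹ * k₂⁻¹) := by group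
    rw [e]
    exact mul_mem hy hy2
  have hKr : IsPGroup r ↥K := hR.to_le hK
  have hKbot : K = ⊥ := by
    by_contra hne
    have := Cfsg.Agent.Lib.Helper14.commutator_lt_of_isPGroup hKr hKr le_normalizer hne
    rw [hperf] at this
    exact lt_irrefl _ this
  intro k hk
  rw [hKbot, mem_bot] at hk ⊢
  rw [hk]; group

theorem odd0_core {V L A K : Subgroup X} (hV : IsElementaryAbelian p V)
    (hLV : L ≤ normalizer (V : Set X)) (hAV : A ≤ normalizer (V : Set X))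
    (hAL : A ≤ normalizer (L : Set X)) (hLp : (Nat.card ↥L).Coprime p)
    (hA : IsElementaryAbelian p A) (hf : (L ⊔ A) ⊓ centralizer (V : Set X) = ⊥)
    (hP : ∀ B : Subgroup X, B ≤ A →
      Nat.card B * Nat.card ↥(V ⊓ centralizer (B : Set X)) ≤
        Nat.card A * Nat.card ↥(V ⊓ centralizer (A : Set X)))
    (hKL : K ≤ L) (hperf : ⁅K, K⁆ = K)
    (hd : ∀ a ∈ A, (∀ k ∈ K, a * k * a⁻¹ ∈ K) ∨
      (∀ k ∈ K, ∀ k' ∈ K, k * (a * k' * a⁻¹) = (a * k' * a⁻¹) * k)) :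
    A ≤ normalizer (K : Set X) := by
  obtain ⟨A₁, hA₁, hA₁C, hsup⟩ := odd0_compl hA
    (inf_le_left : A ⊓ centralizer (L : Set X) ≤ A)
  have h := odd0_ffs hV hLV hAV hAL hLp hA hf hA₁ hA₁C
  have hbo := odd0_bo (V := V) hA hP _ inf_le_left hA₁ hA₁C hsup
  have hgen := FFS.le_iSup_minOff h _ A₁ rfl le_sup_right hbo
  rw [← hsup]
  apply sup_le
  · exact (inf_le_right.trans (centralizer_le hKL)).trans (centralizer_le_normalizer _)
  · refine hgen.trans (iSup₂_le fun T hT => ?_)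
    exact le_normalizer_of_conj_mem
      (odd0_T h hT.2 hKL hperf (fun a ha => hd a (hA₁ (hT.1 ha))))

end Cfsg.Agent.Lib.Helper12.PGV
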