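import Cfsg.Agent.Lib.Helper12.PGV.Defs
import Cfsg.Agent.Lib.Helper12.PGV.ODD0a
import Cfsg.Agent.Lib.Helper28.Components

set_option autoImplicit false

namespace Cfsg.Agent.Lib.Helper12.PGV

open Cfsg Subgroup
open Cfsg.Agent.Lib.Helper14 (IsElementaryAbelian.comm IsElementaryAbelian.isPGroup
  IsElementaryAbelian.mono isElementaryAbelian_iff)

section bridge

variable {G V : Type*} [Group G] [AddCommGroup V] {p : ℕ} [Module (ZMod p) V]

/-- the action of `G` on `Multiplicative V` -/
def odd0Phi (ρ : Representation (ZMod p) G V) : G →* MulAut (Multiplicative V) where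
  toFun g := AddEquiv.toMultiplicative
    { toFun := ρ g
      invFun := ρ g⁻¹
      left_inv := fun v => by rw [← Module.End.mul_apply, ← map_mul]; simp
      right_inv := fun v => by rw [← Module.End.mul_apply, ← map_mul]; simp
      map_add' := map_add _ }
  map_one' := by
    apply MulEquiv.ext
    intro x
    change Multiplicative.ofAdd (ρ 1 x.toAdd) = x
    simp
  map_mul' := by
    intro a b
    apply MulEquiv.ext
    intro x
    change Multiplicative.ofAdd (ρ (a * b) x.toAdd) =
      Multiplicative.ofAdd (ρ a (ρ b x.toAdd))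
    simp

theorem odd0Phi_apply (ρ : Representation (ZMod p) G V) (g : G) (v : V) :
    odd0Phi ρ g (Multiplicative.ofAdd v) = Multiplicative.ofAdd (ρ g v) := rfl

/-- the semidirect product `V ⋊ G` -/
abbrev Odd0X (ρ : Representation (ZMod p) G V) : Type _ := Multiplicative V ⋊[odd0Phi ρ] G

/-- `V → V ⋊ G` -/
def odd0I (ρ : Representation (ZMod p) G V) : Multiplicative V →* Odd0X ρ := SemidirectProduct.inl

/-- `G → V ⋊ G` -/
def odd0J (ρ : Representation (ZMod p) G V) : G →* Odd0X ρ := SemidirectProduct.inr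

theorem odd0I_inj (ρ : Representation (ZMod p) G V) : Function.Injective (odd0I ρ) :=
  SemidirectProduct.inl_injective

theorem odd0J_inj (ρ : Representation (ZMod p) G V) : Function.Injective (odd0J ρ) :=
  SemidirectProduct.inr_injective

theorem odd0_comm_iff (ρ : Representation (ZMod p) G V) (g : G) (v : V) :
    odd0I ρ (Multiplicative.ofAdd v) * odd0J ρ g = odd0J ρ g * odd0I ρ (Multiplicative.ofAdd v) ↔
      ρ g v = v := by
  have h := SemidirectProduct.inl_aut (φ := odd0Phi ρ) g (Multiplicative.ofAdd v)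
  rw [odd0Phi_apply] at h
  have h' : odd0I ρ (Multiplicative.ofAdd (ρ g v)) * odd0J ρ g =
      odd0J ρ g * odd0I ρ (Multiplicative.ofAdd v) := by
    change (SemidirectProduct.inl _ : Odd0X ρ) * SemidirectProduct.inr g = _
    rw [h, map_inv, inv_mul_cancel_right]
    rfl
  rw [← h', mul_left_inj, (odd0I_inj ρ).eq_iff]
  constructor
  · intro e; exact (Multiplicative.ofAdd.injective e).symm
  · intro e; rw [e]

theorem odd0_range_normal (ρ : Representation (ZMod p) G V) : (odd0I ρ).range.Normal := by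
  have : (odd0I ρ).range = (SemidirectProduct.rightHom : Odd0X ρ →* G).ker :=
    SemidirectProduct.range_inl_eq_ker_rightHom
  rw [this]
  infer_instance

theorem odd0_elemAb [Fact p.Prime] (ρ : Representation (ZMod p) G V) :
    IsElementaryAbelian p (odd0I ρ).range := by
  rw [isElementaryAbelian_iff]
  constructor
  · rintro _ ⟨a, rfl⟩ _ ⟨b, rfl⟩
    rw [← map_mul, ← map_mul, mul_comm]
  · rintro _ ⟨a, rfl⟩
    rw [← map_pow]
    have : a ^ p = 1 := by
      change Multiplicative.ofAdd (p • a.toAdd) = 1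
      have h0 : p • a.toAdd = 0 := by
        rw [← Nat.cast_smul_eq_nsmul (ZMod p), ZMod.natCast_self, zero_smul]
      rw [h0]; rfl
    rw [this, map_one]

theorem odd0_faithful (ρ : Representation (ZMod p) G V) (hρ : Function.Injective ρ)
    (S : Subgroup G) :
    S.map (odd0J ρ) ⊓ centralizer ((odd0I ρ).range : Set (Odd0X ρ)) = ⊥ := by
  rw [eq_bot_iff]
  rintro _ ⟨⟨g, _, rfl⟩, hg⟩
  rw [mem_bot]
  have : g = 1 := by
    apply hρ
    rw [map_one]
    ext v
    exact (odd0_comm_iff ρ g v).mp (mem_centralizer_iff.mp hg _ ⟨_, rfl⟩)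
  rw [this, map_one]

theorem odd0_card_fix (ρ : Representation (ZMod p) G V) (B : Subgroup G) :
    Nat.card ↥((odd0I ρ).range ⊓ centralizer ((B.map (odd0J ρ) : Subgroup (Odd0X ρ)) : Set _)) =
      Nat.card {v : V // ∀ b ∈ B, ρ b v = v} := by
  symm
  apply Nat.card_congr
  refine Equiv.ofBijective (fun v => ⟨odd0I ρ (Multiplicative.ofAdd v.1), ?_⟩) ⟨?_, ?_⟩
  · refine mem_inf.mpr ⟨⟨_, rfl⟩, ?_⟩
    rw [mem_centralizer_iff]
    rintro _ ⟨b, hb, rfl⟩
    exact ((odd0_comm_iff ρ b v.1).mpr (v.2 b hb)).symm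
  · intro v w hvw
    have := congrArg Subtype.val hvw
    exact Subtype.ext (Multiplicative.ofAdd.injective (odd0I_inj ρ this))
  · rintro ⟨_, ⟨a, rfl⟩, ha⟩
    refine ⟨⟨a.toAdd, ?_⟩, rfl⟩
    intro b hb
    exact (odd0_comm_iff ρ b a.toAdd).mp (mem_centralizer_iff.mp ha _ ⟨b, hb, rfl⟩).symm

end bridge

/-- [ODD0] the case p ∤ |K|. -/
theorem odd0 {G V : Type*} [Group G] [Finite G] [AddCommGroup V] [Finite V] (p : ℕ) [Fact p.Prime]
    [Module (ZMod p) V] (ρ : Representation (ZMod p) G V) (hρ : Function.Injective ρ)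
    (A : Subgroup G) (hAel : Cfsg.IsElementaryAbelian p A)
    (hP : ∀ B : Subgroup G, B ≤ A →
      Nat.card ↥B * Nat.card {v : V // ∀ b ∈ B, ρ b v = v} ≤
        Nat.card ↥A * Nat.card {v : V // ∀ a ∈ A, ρ a v = v})
    (K : Subgroup G) (hK : Cfsg.IsComponent K) (hpK : ¬ p ∣ Nat.card K) :
    A ≤ Subgroup.normalizer (K : Set G) := by
  have hfin : Finite (Odd0X ρ) := Finite.of_equiv _ SemidirectProduct.equivProd.symm
  have hinj := odd0J_inj ρ
  have hLc : (Cfsg.pPrimeCore p G).Characteristic :=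
    Cfsg.Agent.Lib.Helper28.pPrimeCore_characteristic p
  have hLn : (Cfsg.pPrimeCore p G).Normal := inferInstance
  have hKp : (Nat.card ↥K).Coprime p :=
    ((Nat.Prime.coprime_iff_not_dvd (Fact.out : p.Prime)).mpr hpK).symm
  have hKL : K ≤ Cfsg.pPrimeCore p G := Cfsg.Agent.Lib.Helper28.subnormal_le_pPrimeCore hK.1 hKp
  have hNV : normalizer ((odd0I ρ).range : Set (Odd0X ρ)) = ⊤ :=
    normalizer_eq_top_iff.mpr (odd0_range_normal ρ)
  have hcore := odd0_core (X := Odd0X ρ) (p := p) (V := (odd0I ρ).range)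
    (L := (Cfsg.pPrimeCore p G).map (odd0J ρ)) (A := A.map (odd0J ρ)) (K := K.map (odd0J ρ))
    (odd0_elemAb ρ) (by rw [hNV]; exact le_top) (by rw [hNV]; exact le_top)
    ((map_mono (by rw [normalizer_eq_top_iff.mpr hLn]; exact le_top)).trans (le_normalizer_map _))
    (by rw [card_map_of_injective hinj]; exact Cfsg.Agent.Lib.Helper28.pPrimeCore_coprime p)
    (Cfsg.Agent.Lib.Helper14.IsElementaryAbelian.map hAel (odd0J ρ))
    (by rw [← Subgroup.map_sup]; exact odd0_faithful ρ hρ _)
    (by
      intro B' hB'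
      have hB'eq : (B'.comap (odd0J ρ)).map (odd0J ρ) = B' :=
        map_comap_eq_self (hB'.trans (map_le_range _ _))
      rw [← hB'eq, odd0_card_fix, odd0_card_fix, card_map_of_injective hinj,
        card_map_of_injective hinj]
      apply hP
      intro x hx
      exact (mem_map_iff_mem hinj).mp (hB' hx))
    (map_mono hKL)
    (by rw [← map_commutator, Cfsg.Agent.Lib.Helper28.isPerfect_of_isComponent hK])
    (by
      rintro _ ⟨a, ha, rfl⟩
      by_cases h : K.map (MulAut.conj a).toMonoidHom = K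
      · left
        rintro _ ⟨k, hk, rfl⟩
        rw [← map_inv, ← map_mul, ← map_mul]
        apply mem_map_of_mem
        rw [← h]
        exact ⟨k, hk, by simp [MulAut.conj_apply]⟩
      · right
        have hc := Cfsg.Agent.Lib.Helper28.IsComponent.commutator_eq_bot_of_ne hK
          (Cfsg.Agent.Lib.Helper28.isComponent_map_equiv (MulAut.conj a) hK) (Ne.symm h)
        rw [commutator_eq_bot_iff_le_centralizer] at hc
        rintro _ ⟨k, hk, rfl⟩ _ ⟨k', hk', rfl⟩
        rw [← map_inv, ← map_mul, ← map_mul, ← map_mul, ← map_mul]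
        congr 1
        exact (mem_centralizer_iff.mp (hc hk) (a * k' * a⁻¹)
          ⟨k', hk', by simp [MulAut.conj_apply]⟩).symm)
  intro a ha
  rw [mem_normalizer_iff]
  intro k
  have := mem_normalizer_iff.mp (hcore (mem_map_of_mem _ ha)) (odd0J ρ k)
  rw [← map_inv, ← map_mul, ← map_mul, mem_map_iff_mem hinj, mem_map_iff_mem hinj] at this
  exact this

end Cfsg.Agent.Lib.Helper12.PGV
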